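/-
PU module QdC (for S2766): commutator lemmas for `exists_l3`.
-/
import Mathlib

set_option autoImplicit false
namespace Cfsg.Agent.Lib.PU
open scoped commutatorElement

variable {G : Type*} [Group G]

namespace QdCAux

lemma comm_c1 {x y u : G} (hu : u * (x * y * x⁻¹) = (x * y * x⁻¹) * u) : ⁅u * x, y⁆ = ⁅x, y⁆ := by
  simp only [commutatorElement_def]
  calc u * x * y * (u * x)⁻¹ * y⁻¹ = (u * (x * y * x⁻¹)) * u⁻¹ * y⁻¹ := by group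
    _ = ((x * y * x⁻¹) * u) * u⁻¹ * y⁻¹ := by rw [hu]
    _ = x * y * x⁻¹ * y⁻¹ := by group

lemma comm_c2 {x y v : G} (hv : x * v = v * x) (hv2 : v * (x * y * x⁻¹ * y⁻¹) = (x * y * x⁻¹ * y⁻¹) * v) :
    ⁅x, v * y⁆ = ⁅x, y⁆ := by
  simp only [commutatorElement_def]
  calc x * (v * y) * x⁻¹ * (v * y)⁻¹ = (x * v) * y * x⁻¹ * y⁻¹ * v⁻¹ := by group
    _ = (v * (x * y * x⁻¹ * y⁻¹)) * v⁻¹ := by rw [hv]; group
    _ = ((x * y * x⁻¹ * y⁻¹) * v) * v⁻¹ := by rw [hv2]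
    _ = x * y * x⁻¹ * y⁻¹ := by group

/-- `e` commutes with `⁅a,b⁆` if `⁅e,a⁆`, `⁅e,b⁆` are central. -/
lemma comm_of_central {e a b : G} (ha : ∀ g, ⁅e, a⁆ * g = g * ⁅e, a⁆) (hb : ∀ g, ⁅e, b⁆ * g = g * ⁅e, b⁆) :
    ⁅a, b⁆ * e = e * ⁅a, b⁆ := by
  have h1 : e * a * e⁻¹ = ⁅e, a⁆ * a := by
    simp only [commutatorElement_def]; group
  have h2 : e * b * e⁻¹ = ⁅e, b⁆ * b := by
    simp only [commutatorElement_def]; group
  have h3 : e * ⁅a, b⁆ * e⁻¹ = ⁅e * a * e⁻¹, e * b * e⁻¹⁆ := by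
    simp only [commutatorElement_def]; group
  rw [h1, h2, comm_c1 (ha _), comm_c2 (hb a).symm (hb _)] at h3
  exact (mul_inv_eq_iff_eq_mul.mp h3).symm

end QdCAux

end Cfsg.Agent.Lib.PU
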