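/-
PU module QdE (for S2766): the abstract identification of `V₁ L₃` with `qdOver F`.
-/
import Mathlib
import Cfsg.Prelude.Def_LocalEven

set_option autoImplicit false
set_option linter.unusedSectionVars false
set_option linter.unusedVariables false

namespace Cfsg.Agent.Lib.PU.QdE

open Matrix Cfsg
open scoped MatrixGroups

variable {F : Type*} [Field F]

/-- The matrix `[[A, a], [0, 1]]`. -/
def qdMat (A : SL(2, F)) (a : Fin 2 → F) : SL(3, F) :=
  ⟨!![A.1 0 0, A.1 0 1, a 0; A.1 1 0, A.1 1 1, a 1; 0, 0, 1], by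
    have h := A.2
    rw [Matrix.det_fin_two] at h
    rw [Matrix.det_fin_three]
    simp
    linear_combination h⟩

lemma qdMat_val (A : SL(2, F)) (a : Fin 2 → F) :
    (qdMat A a).1 = !![A.1 0 0, A.1 0 1, a 0; A.1 1 0, A.1 1 1, a 1; 0, 0, 1] := rfl

lemma qdMat_mul (A B : SL(2, F)) (a b : Fin 2 → F) :
    qdMat A a * qdMat B b = qdMat (A * B) (a + A.1 *ᵥ b) := by
  apply Subtype.ext
  rw [Matrix.SpecialLinearGroup.coe_mul, qdMat_val, qdMat_val, qdMat_val, Matrix.SpecialLinearGroup.coe_mul]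
  ext i j
  fin_cases i <;> fin_cases j <;>
    simp [Matrix.mul_apply, Fin.sum_univ_three, Fin.sum_univ_two, Matrix.mulVec, dotProduct] <;> ring

lemma qdMat_mem (A : SL(2, F)) (a : Fin 2 → F) : qdMat A a ∈ qdOver F :=
  Subgroup.subset_closure ⟨by simp [qdMat_val], by simp [qdMat_val], by simp [qdMat_val]⟩

lemma qdMat_inj {A B : SL(2, F)} {a b : Fin 2 → F} (h : qdMat A a = qdMat B b) : A = B ∧ a = b := by
  have h' : ∀ i j, (qdMat A a).1 i j = (qdMat B b).1 i j := fun i j => by rw [h]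
  constructor
  · apply Subtype.ext
    ext i j
    have := h' (Fin.castLE (by norm_num) i) (Fin.castLE (by norm_num) j)
    fin_cases i <;> fin_cases j <;> simpa [qdMat_val] using this
  · funext i
    have := h' (Fin.castLE (by norm_num) i) 2
    fin_cases i <;> simpa [qdMat_val] using this

lemma qdOver_last {M : SL(3, F)} (h : M ∈ qdOver F) : M.1 2 0 = 0 ∧ M.1 2 1 = 0 ∧ M.1 2 2 = 1 := by
  induction h using Subgroup.closure_induction with
  | mem x hx => exact hx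
  | one => simp
  | mul x y _ _ hx hy =>
    obtain ⟨h1, h2, h3⟩ := hx
    rw [Matrix.SpecialLinearGroup.coe_mul]
    simp only [Matrix.mul_apply, Fin.sum_univ_three, h1, h2, h3]
    simpa using hy
  | inv x _ hx =>
    obtain ⟨h1, h2, h3⟩ := hx
    have e : ∀ j, (x⁻¹).1 2 j = (1 : Matrix (Fin 3) (Fin 3) F) 2 j := by
      intro j
      have := congrFun (congrFun (congrArg Subtype.val (mul_inv_cancel x)) 2) j
      rw [Matrix.SpecialLinearGroup.coe_mul] at this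
      simp only [Matrix.mul_apply, Fin.sum_univ_three, h1, h2, h3] at this
      simpa using this
    rw [e, e, e]
    simp

lemma exists_qdMat {M : SL(3, F)} (h : M ∈ qdOver F) : ∃ A a, qdMat A a = M := by
  obtain ⟨h1, h2, h3⟩ := qdOver_last h
  have hd := M.2
  rw [Matrix.det_fin_three, h1, h2, h3] at hd
  refine ⟨⟨!![M.1 0 0, M.1 0 1; M.1 1 0, M.1 1 1], ?_⟩, ![M.1 0 2, M.1 1 2], ?_⟩
  · rw [Matrix.det_fin_two]
    simp only [Matrix.of_apply, Matrix.cons_val', Matrix.cons_val_zero, Matrix.cons_val_one, Matrix.cons_val_fin_one]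
    linear_combination hd
  · refine Subtype.ext ((qdMat_val _ _).trans ?_)
    ext i j
    fin_cases i <;> fin_cases j <;> simp [h1, h2, h3]

/-- The abstract identification of `V₁ L₃` with `qdOver F`. -/
theorem qd_iso {G : Type*} [Group G] (V₁ L₃ : Subgroup G) [V₁.Normal]
    (ρ : G →* SL(2, F)) (hρV : ∀ v ∈ V₁, ρ v = 1) (hρL : ∀ l ∈ L₃, ρ l = 1 → l = 1) (hρs : L₃.map ρ = ⊤)
    (ψ₁ : V₁ → (Fin 2 → F)) (hψb : Function.Bijective ψ₁) (hψadd : ∀ u w, ψ₁ (u * w) = ψ₁ u + ψ₁ w)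
    (hψact : ∀ (l : L₃) (u w : V₁), (w : G) = (l : G) * u * (l : G)⁻¹ → ψ₁ w = (ρ l).1 *ᵥ ψ₁ u) :
    Nonempty (↥(V₁ ⊔ L₃) ≃* ↥(qdOver F)) := by
  classical
  let f : V₁ × L₃ → ↥(V₁ ⊔ L₃) := fun p => ⟨(p.1 : G) * p.2, mul_mem (Subgroup.mem_sup_left p.1.2) (Subgroup.mem_sup_right p.2.2)⟩
  let g : V₁ × L₃ → ↥(qdOver F) := fun p => ⟨qdMat (ρ p.2) (ψ₁ p.1), qdMat_mem _ _⟩
  have hLinj : ∀ l l' : L₃, ρ l = ρ l' → l = l' := by
    intro l l' h
    have h1 : (l' : G)⁻¹ * l = 1 := hρL _ (mul_mem (inv_mem l'.2) l.2) (by rw [map_mul, map_inv, ← h, inv_mul_cancel])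
    apply Subtype.ext
    exact (inv_mul_eq_one.1 h1).symm
  have hf : Function.Bijective f := by
    constructor
    · rintro ⟨v, l⟩ ⟨v', l'⟩ h
      have h1 : (v : G) * l = v' * l' := congrArg Subtype.val h
      have h2 : ρ l = ρ l' := by
        have := congrArg ρ h1
        rwa [map_mul, map_mul, hρV _ v.2, hρV _ v'.2, one_mul, one_mul] at this
      have h3 := hLinj l l' h2
      subst h3
      have h4 : (v : G) = v' := mul_right_cancel h1
      rw [Subtype.ext h4]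
    · rintro ⟨x, hx⟩
      have hx' : x ∈ ((V₁ ⊔ L₃ : Subgroup G) : Set G) := hx
      rw [Subgroup.normal_mul] at hx'
      obtain ⟨v, hv, l, hl, rfl⟩ := Set.mem_mul.1 hx'
      exact ⟨(⟨v, hv⟩, ⟨l, hl⟩), rfl⟩
  have hg : Function.Bijective g := by
    constructor
    · rintro ⟨v, l⟩ ⟨v', l'⟩ h
      obtain ⟨h1, h2⟩ := qdMat_inj (congrArg Subtype.val h)
      have h3 : l = l' := hLinj l l' h1
      have h4 : v = v' := hψb.1 h2
      rw [h3, h4]
    · rintro ⟨M, hM⟩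
      obtain ⟨A, a, rfl⟩ := exists_qdMat hM
      have hA : A ∈ L₃.map ρ := by rw [hρs]; trivial
      obtain ⟨l, hl, rfl⟩ := hA
      obtain ⟨v, rfl⟩ := hψb.2 a
      exact ⟨(v, ⟨l, hl⟩), rfl⟩
  let star : V₁ × L₃ → V₁ × L₃ → V₁ × L₃ := fun p q =>
    (p.1 * ⟨(p.2 : G) * q.1 * (p.2 : G)⁻¹, Subgroup.Normal.conj_mem inferInstance _ q.1.2 _⟩, p.2 * q.2)
  have hfs : ∀ p q, f (star p q) = f p * f q := by
    intro p q
    apply Subtype.ext
    show ((p.1 : G) * ((p.2 : G) * q.1 * (p.2 : G)⁻¹)) * ((p.2 : G) * q.2) = ((p.1 : G) * p.2) * ((q.1 : G) * q.2)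
    group
  have hgs : ∀ p q, g (star p q) = g p * g q := by
    intro p q
    apply Subtype.ext
    show qdMat (ρ (((p.2 * q.2 : L₃)) : G)) (ψ₁ (p.1 * ⟨(p.2 : G) * q.1 * (p.2 : G)⁻¹, _⟩)) =
      qdMat (ρ p.2) (ψ₁ p.1) * qdMat (ρ q.2) (ψ₁ q.1)
    rw [qdMat_mul, hψadd, hψact p.2 q.1 ⟨(p.2 : G) * q.1 * (p.2 : G)⁻¹, Subgroup.Normal.conj_mem inferInstance _ q.1.2 _⟩ rfl]
    simp
  let e : ↥(V₁ ⊔ L₃) ≃ ↥(qdOver F) := (Equiv.ofBijective f hf).symm.trans (Equiv.ofBijective g hg)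
  have he : ∀ p, e (f p) = g p := by
    intro p
    show (Equiv.ofBijective g hg) ((Equiv.ofBijective f hf).symm (f p)) = g p
    have : (Equiv.ofBijective f hf).symm (f p) = p := (Equiv.ofBijective f hf).symm_apply_apply p
    rw [this]
    rfl
  refine ⟨MulEquiv.mk' e ?_⟩
  intro x y
  obtain ⟨p, rfl⟩ := hf.2 x
  obtain ⟨q, rfl⟩ := hf.2 y
  rw [← hfs, he, he, he, hgs]

end Cfsg.Agent.Lib.PU.QdE
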